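import Mathlib
import Cfsg.Agent.S1500
import Cfsg.Agent.S1498

set_option autoImplicit false
set_option linter.unusedSectionVars false

/-!
# The Dade map and `π`-parts (helper4)

Numerical data `n1 n2 k` attached to a Dade hypothesis, and the formula
`α^τ (g ^ k) = α^τ g`.
-/

namespace Cfsg.Agent.Lib.Helper4.DadeV

open Cfsg

theorem exists_split (c : ℕ) : ∀ n : ℕ, 0 < n →
    ∃ n1 n2 N : ℕ, n = n1 * n2 ∧ Nat.Coprime n2 c ∧ n1 ∣ c ^ N := by
  intro n
  induction n using Nat.strong_induction_on with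
  | _ n ih =>
    intro hn
    by_cases h : Nat.Coprime n c
    · exact ⟨1, n, 0, by simp, h, by simp⟩
    · set d := Nat.gcd n c with hd
      have hd1 : d ≠ 1 := h
      have hd0 : 0 < d := Nat.gcd_pos_of_pos_left _ hn
      have hdn : d ∣ n := Nat.gcd_dvd_left _ _
      have hdc : d ∣ c := Nat.gcd_dvd_right _ _
      obtain ⟨e, he⟩ := hdn
      have he0 : 0 < e := by
        rcases Nat.eq_zero_or_pos e with h0 | h0
        · subst h0; simp at he; omega
        · exact h0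
      have hlt : e < n := by
        rw [he]
        have : 2 ≤ d := by omega
        nlinarith
      obtain ⟨n1, n2, N, h1, h2, h3⟩ := ih e hlt he0
      refine ⟨d * n1, n2, N + 1, by rw [he, h1]; ring, h2, ?_⟩
      rw [pow_succ, mul_comm]
      exact Nat.mul_dvd_mul h3 hdc

variable {G : Type*} [Group G] [Fintype G] {A : Set G} {L : Subgroup G} {H : G → Subgroup G}

/-- Numerical data attached to a Dade hypothesis. -/
structure Data (A : Set G) (L : Subgroup G) (H : G → Subgroup G) (n1 n2 k : ℕ) : Prop where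
  card_eq : Nat.card G = n1 * n2
  cop : Nat.Coprime n1 n2
  dvd1 : ∀ a ∈ A, Nat.card ↥(L ⊓ Subgroup.centralizer ({a} : Set G)) ∣ n1
  dvd2 : ∀ a ∈ A, Nat.card (H a) ∣ n2
  k1 : k ≡ 1 [MOD n1]
  k2 : k ≡ 0 [MOD n2]

theorem exists_data (hD : DadeHypothesis A L H) : ∃ n1 n2 k : ℕ, Data A L H n1 n2 k := by
  classical
  set c : ℕ := ∏ a ∈ A.toFinset, Nat.card ↥(L ⊓ Subgroup.centralizer ({a} : Set G)) with hc
  obtain ⟨n1, n2, N, h1, h2, h3⟩ := exists_split c (Nat.card G) Nat.card_pos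
  have hcop : Nat.Coprime n1 n2 :=
    Nat.Coprime.coprime_dvd_left h3 (Nat.Coprime.pow_left N h2.symm)
  have hdc : ∀ a ∈ A, Nat.card ↥(L ⊓ Subgroup.centralizer ({a} : Set G)) ∣ c := fun a ha =>
    Finset.dvd_prod_of_mem (fun a => Nat.card ↥(L ⊓ Subgroup.centralizer ({a} : Set G)))
      (Set.mem_toFinset.mpr ha)
  let k := Nat.chineseRemainder hcop 1 0
  refine ⟨n1, n2, k.1, h1, hcop, fun a ha => ?_, fun a ha => ?_, k.2.1, k.2.2⟩
  · have h4 : Nat.Coprime (Nat.card ↥(L ⊓ Subgroup.centralizer ({a} : Set G))) n2 :=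
      Nat.Coprime.coprime_dvd_left (hdc a ha) h2.symm
    exact h4.dvd_of_dvd_mul_right (h1 ▸ Subgroup.card_subgroup_dvd_card _)
  · have h4 : Nat.Coprime (Nat.card (H a)) c :=
      Nat.Coprime.prod_right fun b hb => hD.coprime a ha b (Set.mem_toFinset.mp hb)
    have h5 : Nat.Coprime (Nat.card (H a)) n1 :=
      Nat.Coprime.coprime_dvd_right h3 (Nat.Coprime.pow_right N h4)
    exact h5.dvd_of_dvd_mul_left (h1 ▸ Subgroup.card_subgroup_dvd_card _)

variable {n1 n2 k : ℕ}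

theorem Data.pow_card1 (hd : Data A L H n1 n2 k) (hD : DadeHypothesis A L H) {a : G} (ha : a ∈ A) :
    a ^ n1 = 1 := by
  have hmem : a ∈ L ⊓ Subgroup.centralizer ({a} : Set G) :=
    ⟨hD.subset ha, Subgroup.mem_centralizer_singleton_iff.mpr rfl⟩
  have h1 : orderOf a ∣ Nat.card ↥(L ⊓ Subgroup.centralizer ({a} : Set G)) := by
    have := orderOf_dvd_natCard (⟨a, hmem⟩ : ↥(L ⊓ Subgroup.centralizer ({a} : Set G)))
    rwa [Subgroup.orderOf_mk] at this
  exact orderOf_dvd_iff_pow_eq_one.mp (h1.trans (hd.dvd1 a ha))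

theorem Data.pow_card2 (hd : Data A L H n1 n2 k) {a u : G} (ha : a ∈ A) (hu : u ∈ H a) :
    u ^ n2 = 1 := by
  have h1 : orderOf u ∣ Nat.card (H a) := by
    have := orderOf_dvd_natCard (⟨u, hu⟩ : H a)
    rwa [Subgroup.orderOf_mk] at this
  exact orderOf_dvd_iff_pow_eq_one.mp (h1.trans (hd.dvd2 a ha))

/-- elements killed by `n1` are fixed by the `k`-th power. -/
theorem Data.pow_k_of_pow1 (hd : Data A L H n1 n2 k) {a : G} (ha : a ^ n1 = 1) : a ^ k = a := by
  have h1 : k ≡ 1 [MOD orderOf a] := hd.k1.of_dvd (orderOf_dvd_iff_pow_eq_one.mpr ha)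
  have := pow_eq_pow_iff_modEq.mpr h1
  rwa [pow_one] at this

theorem Data.pow_k_of_pow2 (hd : Data A L H n1 n2 k) {u : G} (hu : u ^ n2 = 1) : u ^ k = 1 := by
  obtain ⟨e, he⟩ := (Nat.modEq_zero_iff_dvd).mp hd.k2
  rw [he, pow_mul, hu, one_pow]

theorem Data.pow_k_pow1 (hd : Data A L H n1 n2 k) (g : G) : (g ^ k) ^ n1 = 1 := by
  obtain ⟨e, he⟩ := (Nat.modEq_zero_iff_dvd).mp hd.k2
  rw [← pow_mul, he, mul_comm, ← mul_assoc, ← hd.card_eq, pow_mul, pow_card_eq_one', one_pow]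

theorem Data.pow_k_pow_k (hd : Data A L H n1 n2 k) (g : G) : (g ^ k) ^ k = g ^ k :=
  hd.pow_k_of_pow1 (hd.pow_k_pow1 g)

theorem Data.eq_one_of_pow (hd : Data A L H n1 n2 k) {u : G} (h1 : u ^ n1 = 1) (h2 : u ^ n2 = 1) :
    u = 1 := by
  have := hd.pow_k_of_pow1 h1
  rw [hd.pow_k_of_pow2 h2] at this
  exact this.symm

theorem comm_of_mem (hD : DadeHypothesis A L H) {a u : G} (ha : a ∈ A) (hu : u ∈ H a) :
    Commute a u := by
  have := Subgroup.mem_centralizer_singleton_iff.mp (hD.le_centralizer a ha hu)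
  exact this.symm

theorem Data.pow_of_form (hd : Data A L H n1 n2 k) (hD : DadeHypothesis A L H) {a u x g : G}
    (ha : a ∈ A) (hu : u ∈ H a) (h : x * g * x⁻¹ = a * u) : x * g ^ k * x⁻¹ = a := by
  rw [← conj_pow, h, (comm_of_mem hD ha hu).mul_pow, hd.pow_k_of_pow1 (hd.pow_card1 hD ha),
    hd.pow_k_of_pow2 (hd.pow_card2 ha hu), mul_one]

theorem Data.form_of_pow (hd : Data A L H n1 n2 k) (hD : DadeHypothesis A L H) {a x g : G}
    (ha : a ∈ A) (h : x * g ^ k * x⁻¹ = a) : ∃ u ∈ H a, x * g * x⁻¹ = a * u := by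
  set g' := x * g * x⁻¹ with hg'
  have h1 : g' ^ k = a := by rw [hg', conj_pow, h]
  set v := (g' ^ k)⁻¹ * g' with hv
  have hcomm : Commute ((g' ^ k)⁻¹) g' := ((Commute.refl g').pow_left k).inv_left
  have hv2 : v ^ n2 = 1 := by
    rw [hv, hcomm.mul_pow, inv_pow, ← pow_mul]
    have h3 : k * n2 ≡ 1 * n2 [MOD n1 * n2] := Nat.ModEq.mul_right' n2 hd.k1
    rw [one_mul, ← hd.card_eq] at h3
    have h4 : g' ^ (k * n2) = g' ^ n2 :=
      pow_eq_pow_iff_modEq.mpr (h3.of_dvd (orderOf_dvd_natCard g'))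
    rw [h4, inv_mul_cancel]
  have hvc : v ∈ Subgroup.centralizer ({a} : Set G) := by
    rw [Subgroup.mem_centralizer_singleton_iff, ← h1, hv]
    have c1 : Commute (g' ^ k) g' := (Commute.refl g').pow_left k
    have c2 : Commute ((g' ^ k)⁻¹ * g') (g' ^ k) :=
      Commute.mul_left ((Commute.refl (g' ^ k)).inv_left) c1.symm
    exact c2.eq
  refine ⟨v, ?_, ?_⟩
  · apply Cfsg.Agent.S1498.mem_H_of_coprime A L H hD a ha v hvc
    exact Nat.Coprime.coprime_dvd_left (orderOf_dvd_iff_pow_eq_one.mpr hv2)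
      (Nat.Coprime.coprime_dvd_right (hd.dvd1 a ha) hd.cop.symm)
  · rw [← h1, hv, mul_inv_cancel_left]

/-- The Dade image only depends on the `π`-part `g ^ k`. -/
theorem Data.dade_pow (hd : Data A L H n1 n2 k) (hD : DadeHypothesis A L H) (α : L → ℂ)
    (hα : IsClassFunction L α) (g : G) :
    dadeIsometry A L H α (g ^ k) = dadeIsometry A L H α g := by
  by_cases hg : ∃ a ∈ A, ∃ u ∈ H a, ∃ x : G, x * g * x⁻¹ = a * u
  · obtain ⟨a, ha, u, hu, x, hx⟩ := hg
    have h1 : g = x⁻¹ * (((⟨a, hD.subset ha⟩ : L) : G) * u) * x := by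
      show g = x⁻¹ * (a * u) * x
      rw [← hx]; group
    have h2 : g ^ k = x⁻¹ * (((⟨a, hD.subset ha⟩ : L) : G) * 1) * x := by
      show g ^ k = x⁻¹ * (a * 1) * x
      rw [← hd.pow_of_form hD ha hu hx]; group
    rw [h2, Cfsg.Agent.S1500.dade_apply hD α hα _ ha 1 (one_mem _), h1,
      Cfsg.Agent.S1500.dade_apply hD α hα _ ha u hu]
  · rw [Cfsg.Agent.S1500.dade_apply_not α g hg, Cfsg.Agent.S1500.dade_apply_not]
    rintro ⟨a, ha, u, hu, x, hx⟩
    have h1 := hd.pow_of_form hD ha hu hx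
    rw [hd.pow_k_pow_k] at h1
    obtain ⟨v, hv, hx'⟩ := hd.form_of_pow hD ha h1
    exact hg ⟨a, ha, v, hv, x, hx'⟩

end Cfsg.Agent.Lib.Helper4.DadeV
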