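import Mathlib
import Cfsg.Agent.Lib.Helper4.DadeV1
import Cfsg.Agent.Lib.Helper3.Table
import Cfsg.Agent.Lib.Helper3.Induction
import Cfsg.Agent.Lib.Helper3.Perm

set_option autoImplicit false
set_option linter.unusedSectionVars false

/-!
# The Dade map restricted to `π`-subgroups is a generalized character (helper4)
-/

namespace Cfsg.Agent.Lib.Helper4.DadeV

open Cfsg Cfsg.Agent.Lib.Helper3 Polynomial
open scoped ComplexConjugate

/-- The elements of `G` killed by `n`. -/
def Tors (G : Type*) [Group G] (n : ℕ) := {u : G // u ^ n = 1}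

instance torsAction (G : Type*) [Group G] (n : ℕ) : MulAction G (Tors G n) where
  smul g u := ⟨g * u.1 * g⁻¹, by rw [conj_pow, u.2]; simp⟩
  one_smul u := Subtype.ext (by show 1 * u.1 * 1⁻¹ = u.1; simp)
  mul_smul g h u := Subtype.ext (by
    show (g * h) * u.1 * (g * h)⁻¹ = g * (h * u.1 * h⁻¹) * g⁻¹
    group)

instance (G : Type*) [Group G] [Finite G] (n : ℕ) : Finite (Tors G n) :=
  inferInstanceAs (Finite {u : G // u ^ n = 1})

/-- number of elements killed by `n` commuting with `g`. -/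
noncomputable def uNat {G : Type*} [Group G] (n : ℕ) (g : G) : ℕ :=
  Nat.card (MulAction.fixedBy (Tors G n) g)

variable {G : Type*} [Group G] [Fintype G] {A : Set G} {L : Subgroup G} {H : G → Subgroup G}
variable {n1 n2 k : ℕ}

theorem isCharacter_uNat (n : ℕ) : IsCharacter G (fun g => (uNat n g : ℂ)) :=
  isCharacter_card_fixedBy (Tors G n)

theorem isCharacter_uNat_pow (n j : ℕ) : IsCharacter G (fun g => (uNat n g : ℂ) ^ j) := by
  induction j with
  | zero =>
    have := isCharacter_one (G := G)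
    convert this using 1
    funext g
    simp
  | succ j ih =>
    have := IsCharacter.mul ih (isCharacter_uNat (G := G) n)
    convert this using 1
    funext g
    simp [pow_succ]

theorem Data.uNat_eq (hd : Data A L H n1 n2 k) (hD : DadeHypothesis A L H) {a : G} (ha : a ∈ A) :
    uNat n2 a = Nat.card (H a) := by
  refine Nat.card_congr ⟨fun u => ⟨u.1.1, ?_⟩, fun u => ⟨⟨u.1, hd.pow_card2 ha u.2⟩, ?_⟩,
    fun u => rfl, fun u => rfl⟩
  · obtain ⟨⟨u, hu⟩, hfix⟩ := u
    have h1 : a * u * a⁻¹ = u := congrArg Subtype.val hfix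
    apply Cfsg.Agent.S1498.mem_H_of_coprime A L H hD a ha u
    · rw [Subgroup.mem_centralizer_singleton_iff]
      calc u * a = (a * u * a⁻¹) * a := by rw [h1]
        _ = a * u := by group
    · exact Nat.Coprime.coprime_dvd_left (orderOf_dvd_iff_pow_eq_one.mpr hu)
        (Nat.Coprime.coprime_dvd_right (hd.dvd1 a ha) hd.cop.symm)
  · apply Subtype.ext
    show a * u.1 * a⁻¹ = u.1
    rw [(comm_of_mem hD ha u.2).eq, mul_inv_cancel_right]

theorem isIntegral_of_gen {X : Type*} [Group X] [Finite X] {α : X → ℂ}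
    (hα : IsGeneralizedCharacter X α) (x : X) : IsIntegral ℤ (α x) := by
  obtain ⟨a, b, ha, hb, rfl⟩ := hα
  exact (IsCharacter.isIntegral ha x).sub (IsCharacter.isIntegral hb x)

theorem isIntegral_dade (α : L → ℂ) (hα : IsGeneralizedCharacter L α) (g : G) :
    IsIntegral ℤ (dadeIsometry A L H α g) := by
  unfold dadeIsometry
  split
  · exact isIntegral_of_gen hα _
  · exact isIntegral_zero

theorem int_inner_gen_char {X : Type*} [Group X] [Fintype X] {α β : X → ℂ}
    (hα : IsGeneralizedCharacter X α) (hβ : IsCharacter X β) : ∃ z : ℤ, classInner α β = z := by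
  obtain ⟨a, b, ha, hb, rfl⟩ := hα
  obtain ⟨n, hn⟩ := IsCharacter.classInner_eq_natCast ha hβ
  obtain ⟨m, hm⟩ := IsCharacter.classInner_eq_natCast hb hβ
  exact ⟨n - m, by rw [classInner_sub_left, hn, hm]; push_cast; ring⟩

theorem int_inner_poly [Fintype L] (n : ℕ) {α : L → ℂ} (hα : IsGeneralizedCharacter L α) {χ : G → ℂ}
    (hχ : IsCharacter G χ) (q : ℤ[X]) :
    ∃ z : ℤ, classInner α (fun l : L => ((q.eval ((uNat n (l : G) : ℕ) : ℤ) : ℤ) : ℂ) * χ l) = z := by
  induction q using Polynomial.induction_on' with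
  | add p q hp hq =>
    obtain ⟨z1, h1⟩ := hp
    obtain ⟨z2, h2⟩ := hq
    refine ⟨z1 + z2, ?_⟩
    have : (fun l : L => (((p + q).eval ((uNat n (l : G) : ℕ) : ℤ) : ℤ) : ℂ) * χ l) =
        (fun l : L => ((p.eval ((uNat n (l : G) : ℕ) : ℤ) : ℤ) : ℂ) * χ l) +
        (fun l : L => ((q.eval ((uNat n (l : G) : ℕ) : ℤ) : ℤ) : ℂ) * χ l) := by
      funext l
      simp [add_mul]
    rw [this, classInner_add_right, h1, h2]; push_cast; ring
  | monomial j a =>
    have hc : IsCharacter L (fun l : L => (uNat n (l : G) : ℂ) ^ j * χ l) :=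
      IsCharacter.restrict (IsCharacter.mul (isCharacter_uNat_pow (G := G) n j) hχ) L
    obtain ⟨z, hz⟩ := int_inner_gen_char hα hc
    refine ⟨a * z, ?_⟩
    have : (fun l : L => (((monomial j a).eval ((uNat n (l : G) : ℕ) : ℤ) : ℤ) : ℂ) * χ l) =
        (a : ℂ) • (fun l : L => (uNat n (l : G) : ℂ) ^ j * χ l) := by
      funext l
      simp [Polynomial.eval_monomial, mul_assoc]
    rw [this, classInner_smul_right, hz]; simp

theorem int_of_integral_of_mul {c : ℂ} {m z : ℤ} (hm : m ≠ 0) (h : (m : ℂ) * c = z)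
    (hi : IsIntegral ℤ c) : ∃ n : ℤ, c = n := by
  have hm' : (m : ℂ) ≠ 0 := by exact_mod_cast hm
  have hc : c = algebraMap ℚ ℂ ((z : ℚ) / (m : ℚ)) := by
    simp only [map_div₀, eq_ratCast, Rat.cast_intCast]
    rw [← h]; field_simp
  rw [hc] at hi
  have h1 := (isIntegral_algebraMap_iff (algebraMap ℚ ℂ).injective).mp hi
  obtain ⟨y, hy⟩ := IsIntegrallyClosed.isIntegral_iff.mp h1
  refine ⟨y, ?_⟩
  rw [hc, ← hy]; simp

end Cfsg.Agent.Lib.Helper4.DadeV
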