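import Mathlib
import Cfsg.Agent.Lib.Helper4.DadeV2

set_option autoImplicit false
set_option linter.unusedSectionVars false

namespace Cfsg.Agent.Lib.Helper4.DadeV

open Cfsg Cfsg.Agent.Lib.Helper3 Polynomial
open scoped ComplexConjugate

variable {G : Type*} [Group G] [Fintype G] {A : Set G} {L : Subgroup G} {H : G → Subgroup G}
variable {n1 n2 k : ℕ}

theorem dade_isClassFunction (hD : DadeHypothesis A L H) (α : L → ℂ) (hα : IsClassFunction L α) :
    IsClassFunction G (dadeIsometry A L H α) := by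
  intro g h
  have := Cfsg.Agent.S1500.dade_class hD α hα g h⁻¹
  rwa [inv_inv] at this

theorem Data.ind_vanish (hd : Data A L H n1 n2 k) (hD : DadeHypothesis A L H) (K : Subgroup G)
    (hK : ∀ x ∈ K, x ^ n1 = 1) (ψ : K → ℂ) {a u : G} (ha : a ∈ A) (hu : u ∈ H a) (hu1 : u ≠ 1) :
    indFun K ψ (a * u) = 0 := by
  unfold indFun
  rw [Finset.sum_eq_zero, mul_zero]
  intro x _
  apply extendByZero_apply_not_mem
  intro hx
  apply hu1
  have h1 := hK _ hx
  have h2 : (a * u) ^ n1 = 1 := by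
    have : x⁻¹ * (a * u) * x = x⁻¹ * (a * u) * x⁻¹⁻¹ := by rw [inv_inv]
    rw [this, conj_pow] at h1
    have h3 : (a * u) ^ n1 = x * (x⁻¹ * (a * u) ^ n1 * x⁻¹⁻¹) * x⁻¹ := by group
    rw [h3, h1]; group
  rw [(comm_of_mem hD ha hu).mul_pow, hd.pow_card1 hD ha, one_mul] at h2
  exact hd.eq_one_of_pow h2 (hd.pow_card2 ha hu)

theorem Data.card_coprime (hd : Data A L H n1 n2 k) (K : Subgroup G)
    (hK : ∀ x ∈ K, x ^ n1 = 1) : Nat.Coprime (Nat.card K) n2 := by
  apply Nat.coprime_of_dvd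
  intro r hr h1 h2
  have : Fact r.Prime := ⟨hr⟩
  obtain ⟨x, hx⟩ := exists_prime_orderOf_dvd_card' r h1
  have h3 : (x : G) ^ n1 = 1 := hK _ x.2
  have h4 : r ∣ n1 := by
    rw [← hx, ← Subgroup.orderOf_coe]
    exact orderOf_dvd_iff_pow_eq_one.mpr h3
  have := Nat.dvd_gcd h4 h2
  rw [hd.cop] at this
  exact hr.one_lt.ne' (Nat.dvd_one.mp this)

theorem Data.restrict_gen [Fintype L] (hd : Data A L H n1 n2 k) (hD : DadeHypothesis A L H)
    (α : L → ℂ) (hα : IsGeneralizedCharacter L α) (hαA : ∀ x : L, (x : G) ∉ A → α x = 0)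
    (K : Subgroup G) (hK : ∀ x ∈ K, x ^ n1 = 1) :
    IsGeneralizedCharacter K (fun x : K => dadeIsometry A L H α x) := by
  classical
  have : Fintype K := Fintype.ofFinite K
  have : Fintype (IrrCharacter K) := Fintype.ofFinite _
  have : Fintype (IrrCharacter L) := Fintype.ofFinite _
  have hαc : IsClassFunction L α := (isGeneralizedCharacter_iff.mp hα).1
  set φ := dadeIsometry A L H α with hφ
  have hφc : IsClassFunction G φ := dade_isClassFunction hD α hαc
  rw [isGeneralizedCharacter_iff]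
  refine ⟨fun g h => hφc _ _, fun ψ => ?_⟩
  set χ := indFun K ψ.1 with hχdef
  have hχ : IsCharacter G χ := isCharacter_indFun K (IsIrrCharacter.isCharacter ψ.2)
  set c := classInner (fun x : K => φ x) ψ.1 with hc
  have h1 : c = classInner φ χ := by
    have h := frobenius_reciprocity K ψ.1 hφc
    rw [hc, ← classInner_conj_symm, ← h, classInner_conj_symm]
  set ψL : L → ℂ := fun a => (Nat.card (H a) : ℂ)⁻¹ * χ a with hψLdef
  have hψL : ∀ a : L, (a : G) ∈ A →
      ψL a = (Nat.card (H a) : ℂ)⁻¹ * ∑ᶠ u ∈ (H a : Set G), χ (a * u) := by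
    intro a ha
    have : ∑ᶠ u ∈ (H a : Set G), χ (a * u) = ∑ᶠ u ∈ ({1} : Set G), χ (a * u) := by
      apply finsum_mem_inter_support_eq
      ext u
      constructor
      · rintro ⟨hu, hs⟩
        refine ⟨?_, hs⟩
        by_contra hu1
        exact hs (hd.ind_vanish hD K hK ψ.1 ha hu hu1)
      · rintro ⟨hu, hs⟩
        rw [Set.mem_singleton_iff] at hu
        subst hu
        exact ⟨one_mem _, hs⟩
    rw [this, finsum_mem_singleton, mul_one]
  have h2 : classInner φ χ = classInner α ψL :=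
    (Cfsg.Agent.S1500.result A L H hD α hαc hαA).2 χ ψL (IsCharacter.isClassFunction hχ) hψL
  -- the polynomial
  set S : Finset ℕ := A.toFinset.image (fun a => Nat.card (H a)) with hS
  set P : ℤ[X] := ∏ v ∈ S, (X - C (v : ℤ)) with hP
  set q : ℤ[X] := P.divX with hq
  set m : ℤ := - P.coeff 0 with hm
  have hcoeff : P.coeff 0 = ∏ v ∈ S, (-(v : ℤ)) := by
    rw [Polynomial.coeff_zero_eq_eval_zero, hP, Polynomial.eval_prod]
    simp
  have hqv : ∀ v ∈ S, q.eval (v : ℤ) * v = m := by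
    intro v hv
    have h3 : P.eval (v : ℤ) = 0 := by
      rw [hP, Polynomial.eval_prod]
      exact Finset.prod_eq_zero hv (by simp)
    have h4 := congrArg (Polynomial.eval (v : ℤ)) (Polynomial.divX_mul_X_add P)
    simp only [Polynomial.eval_add, Polynomial.eval_mul, Polynomial.eval_X, Polynomial.eval_C] at h4
    rw [h3] at h4
    rw [hm, hq]; linarith
  have hSpos : ∀ v ∈ S, v ≠ 0 ∧ v ∣ n2 := by
    intro v hv
    obtain ⟨a, ha, rfl⟩ := Finset.mem_image.mp hv
    exact ⟨Nat.card_pos.ne', hd.dvd2 a (Set.mem_toFinset.mp ha)⟩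
  have hm0 : m ≠ 0 := by
    rw [hm, hcoeff, neg_ne_zero, Finset.prod_ne_zero_iff]
    intro v hv
    have := (hSpos v hv).1
    simpa using this
  have hcop : IsCoprime m (Nat.card K : ℤ) := by
    rw [hm, hcoeff]
    apply IsCoprime.neg_left
    apply IsCoprime.prod_left
    intro v hv
    apply IsCoprime.neg_left
    rw [Nat.isCoprime_iff_coprime]
    exact Nat.Coprime.coprime_dvd_left (hSpos v hv).2 (hd.card_coprime K hK).symm
  obtain ⟨z, hz⟩ := int_inner_poly n2 hα hχ q
  have h3 : (m : ℂ) * classInner α ψL = z := by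
    rw [← hz]
    unfold classInner
    rw [mul_left_comm, Finset.mul_sum]
    congr 1
    refine Finset.sum_congr rfl fun l _ => ?_
    by_cases hl : (l : G) ∈ A
    · have hv : Nat.card (H l) ∈ S := Finset.mem_image.mpr ⟨l, Set.mem_toFinset.mpr hl, rfl⟩
      have h4 := hqv _ hv
      have h5 : ((q.eval ((Nat.card (H l) : ℕ) : ℤ) : ℤ) : ℂ) * (Nat.card (H l) : ℂ) = (m : ℂ) := by
        exact_mod_cast h4
      have h6 : (Nat.card (H l) : ℂ) ≠ 0 := by exact_mod_cast (hSpos _ hv).1
      beta_reduce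
      rw [hd.uNat_eq hD hl, ← h5]
      simp only [hψLdef, map_mul, map_inv₀, Complex.conj_natCast, map_intCast]
      field_simp
    · rw [hαA l hl]; simp
  have h4 : IsIntegral ℤ ((Nat.card K : ℂ) * c) := by
    have hK0 : (Nat.card K : ℂ) ≠ 0 := by exact_mod_cast Nat.card_pos.ne'
    rw [hc]
    unfold classInner
    rw [mul_inv_cancel_left₀ hK0]
    refine IsIntegral.sum _ fun x _ => ?_
    refine (isIntegral_dade α hα _).mul ?_
    exact IsCharacter.isIntegral (IsCharacter.conj (IsIrrCharacter.isCharacter ψ.2)) x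
  obtain ⟨r, s, hrs⟩ := hcop
  have h5 : (m : ℂ) * c = z := by rw [h1, h2, h3]
  have h6 : c = (r : ℂ) * ((m : ℂ) * c) + (s : ℂ) * ((Nat.card K : ℂ) * c) := by
    have : ((r * m + s * (Nat.card K : ℤ) : ℤ) : ℂ) = 1 := by rw [hrs]; simp
    push_cast at this
    linear_combination (-c) * this
  have h7 : IsIntegral ℤ c := by
    rw [h6, h5]
    exact (isIntegral_algebraMap.mul isIntegral_algebraMap).add (isIntegral_algebraMap.mul h4)
  exact int_of_integral_of_mul hm0 h5 h7

end Cfsg.Agent.Lib.Helper4.DadeV
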