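import Mathlib
import Cfsg.Agent.Lib.Helper4.DadeV3
import Cfsg.Agent.S0164

set_option autoImplicit false
set_option linter.unusedSectionVars false

namespace Cfsg.Agent.Lib.Helper4.DadeV

open Cfsg Cfsg.Agent.Lib.Helper3

theorem pow_hom_of_elementary {E : Type*} [Group E] [Finite E] {p : ℕ} (hp : p.Prime)
    (hE : IsElementary p E) {n1 n2 k : ℕ} (hcop : Nat.Coprime n1 n2)
    (hdvd : Nat.card E ∣ n1 * n2) (k1 : k ≡ 1 [MOD n1]) (k2 : k ≡ 0 [MOD n2]) (e1 e2 : E) :
    (e1 * e2) ^ k = e1 ^ k * e2 ^ k := by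
  have : Fact p.Prime := ⟨hp⟩
  obtain ⟨x, hxc, hxp, j, hj⟩ := hE
  set Z := Subgroup.zpowers x with hZ
  have hZc : ∀ z ∈ Z, ∀ y : E, Commute z y := by
    intro z hz y
    obtain ⟨i, rfl⟩ := Subgroup.mem_zpowers_iff.mp hz
    have : Commute x y := (Subgroup.mem_center_iff.mp hxc y).symm
    exact this.zpow_left i
  have hcardE : Nat.card Z * p ^ j = Nat.card E := by rw [← hj]; exact Subgroup.card_mul_index Z
  have hZcard : Nat.card Z = orderOf x := Nat.card_zpowers x
  have hZp : Nat.Coprime (Nat.card Z) p := by rw [hZcard]; exact hxp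
  let P : Sylow p E := default
  have hPcard : Nat.card P = p ^ j := by
    rw [Sylow.card_eq_multiplicity, ← hcardE,
      Nat.factorization_mul Nat.card_pos.ne' (pow_pos hp.pos j).ne']
    have h0 : (Nat.card Z).factorization p = 0 :=
      Nat.factorization_eq_zero_of_not_dvd (fun h => by
        have := Nat.Coprime.eq_one_of_dvd hZp.symm h
        exact hp.one_lt.ne' this)
    simp [h0, hp.factorization_self]
  have hcompl : Subgroup.IsComplement' Z (P : Subgroup E) :=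
    Subgroup.isComplement'_of_coprime (by rw [hPcard, hcardE])
      (by rw [hPcard]; exact Nat.Coprime.pow_right j hZp)
  have hdec : ∀ e : E, ∃ z ∈ Z, ∃ w ∈ (P : Subgroup E), e = z * w := by
    intro e
    obtain ⟨⟨z, w⟩, h, -⟩ := (Subgroup.isComplement_iff_existsUnique.mp hcompl) e
    exact ⟨z.1, z.2, w.1, w.2, h.symm⟩
  have hPpow : ∀ w ∈ (P : Subgroup E), w ^ (p ^ j) = 1 := by
    intro w hw
    have := pow_card_eq_one' (G := (P : Subgroup E)) (x := ⟨w, hw⟩)
    rw [hPcard] at this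
    exact congrArg Subtype.val this
  have hpj : p ^ j ∣ n1 ∨ p ^ j ∣ n2 := by
    rcases Nat.eq_zero_or_pos j with rfl | hj0
    · left; simp
    · have hpp : IsPrimePow (p ^ j) := hp.isPrimePow.pow hj0.ne'
      exact (Nat.Coprime.isPrimePow_dvd_mul hcop hpp).mp ((Dvd.intro_left _ hcardE).trans hdvd)
  have hw : ∀ w1 ∈ (P : Subgroup E), ∀ w2 ∈ (P : Subgroup E),
      (w1 * w2) ^ k = w1 ^ k * w2 ^ k := by
    rcases hpj with h | h
    · have hfix : ∀ w ∈ (P : Subgroup E), w ^ k = w := by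
        intro w hw
        have h1 : k ≡ 1 [MOD orderOf w] :=
          k1.of_dvd ((orderOf_dvd_iff_pow_eq_one.mpr (hPpow w hw)).trans h)
        have := pow_eq_pow_iff_modEq.mpr h1
        rwa [pow_one] at this
      intro w1 h1 w2 h2
      rw [hfix _ (mul_mem h1 h2), hfix _ h1, hfix _ h2]
    · have hkill : ∀ w ∈ (P : Subgroup E), w ^ k = 1 := by
        intro w hw
        obtain ⟨e, he⟩ := h.trans ((Nat.modEq_zero_iff_dvd).mp k2)
        rw [he, pow_mul, hPpow w hw, one_pow]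
      intro w1 h1 w2 h2
      rw [hkill _ (mul_mem h1 h2), hkill _ h1, hkill _ h2, one_mul]
  obtain ⟨z1, hz1, w1, hw1, rfl⟩ := hdec e1
  obtain ⟨z2, hz2, w2, hw2, rfl⟩ := hdec e2
  have c1 : z1 * w1 * (z2 * w2) = (z1 * z2) * (w1 * w2) := by
    have := (hZc z2 hz2 w1).eq
    calc z1 * w1 * (z2 * w2) = z1 * (w1 * z2) * w2 := by group
      _ = z1 * (z2 * w1) * w2 := by rw [this]
      _ = _ := by group
  rw [c1, (hZc _ (mul_mem hz1 hz2) _).mul_pow, (hZc z1 hz1 z2).mul_pow, hw w1 hw1 w2 hw2,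
    (hZc z1 hz1 w1).mul_pow, (hZc z2 hz2 w2).mul_pow]
  have c2 := ((hZc z2 hz2 w1).pow_pow k k).eq
  calc z1 ^ k * z2 ^ k * (w1 ^ k * w2 ^ k) = z1 ^ k * (z2 ^ k * w1 ^ k) * w2 ^ k := by group
    _ = z1 ^ k * (w1 ^ k * z2 ^ k) * w2 ^ k := by rw [c2]
    _ = _ := by group

theorem gen_comp_hom {X Y : Type*} [Group X] [Group Y] {θ : X → ℂ}
    (h : IsGeneralizedCharacter X θ) (f : Y →* X) : IsGeneralizedCharacter Y (θ ∘ f) := by
  obtain ⟨a, b, ha, hb, rfl⟩ := h
  exact ⟨a ∘ f, b ∘ f, IsCharacter.comp_hom ha f, IsCharacter.comp_hom hb f, rfl⟩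

variable {G : Type*} [Group G] [Fintype G] {A : Set G} {L : Subgroup G} {H : G → Subgroup G}

/-- Peterfalvi (2.10): the Dade map sends generalized characters to generalized characters. -/
theorem dade_isGeneralizedCharacter [Fintype L] (hD : DadeHypothesis A L H) (α : L → ℂ)
    (hα : IsGeneralizedCharacter L α) (hαA : ∀ x : L, (x : G) ∉ A → α x = 0) :
    IsGeneralizedCharacter G (dadeIsometry A L H α) := by
  classical
  have : Fintype (IrrCharacter L) := Fintype.ofFinite _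
  have hαc : IsClassFunction L α := (isGeneralizedCharacter_iff.mp hα).1
  obtain ⟨n1, n2, k, hd⟩ := exists_data hD
  apply Cfsg.Agent.S0164.result _ (dade_isClassFunction hD α hαc)
  intro E p hp hE
  have hmul : ∀ e1 e2 : E, (e1 * e2) ^ k = e1 ^ k * e2 ^ k :=
    pow_hom_of_elementary hp hE hd.cop (hd.card_eq ▸ Subgroup.card_subgroup_dvd_card E) hd.k1 hd.k2
  let f0 : E →* G := E.subtype.comp ⟨⟨fun e => e ^ k, one_pow k⟩, hmul⟩
  have hf0 : ∀ e : E, f0 e = (e : G) ^ k := fun e => rfl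
  have hK : ∀ x ∈ f0.range, x ^ n1 = 1 := by
    rintro x ⟨e, rfl⟩
    rw [hf0]; exact hd.pow_k_pow1 _
  have h1 := gen_comp_hom (hd.restrict_gen hD α hα hαA f0.range hK) f0.rangeRestrict
  convert h1 using 1
  funext e
  show dadeIsometry A L H α e = dadeIsometry A L H α (f0 e)
  rw [hf0, hd.dade_pow hD α hαc]

end Cfsg.Agent.Lib.Helper4.DadeV
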