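import Mathlib
import Cfsg.Prelude.Def_Characters

/-! Basic facts about `extendByZero`, `indFun`. -/

set_option autoImplicit false

namespace Cfsg.Agent.Lib.Helper4

variable {G : Type*} [Group G]

theorem extendByZero_of_mem (H : Subgroup G) (θ : H → ℂ) {y : G} (hy : y ∈ H) :
    Cfsg.extendByZero H θ y = θ ⟨y, hy⟩ := by
  unfold Cfsg.extendByZero
  exact Function.Injective.extend_apply Subtype.val_injective θ 0 ⟨y, hy⟩

theorem extendByZero_of_not_mem (H : Subgroup G) (θ : H → ℂ) {y : G} (hy : y ∉ H) :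
    Cfsg.extendByZero H θ y = 0 := by
  unfold Cfsg.extendByZero
  rw [Function.extend_apply']
  · rfl
  · rintro ⟨a, rfl⟩
    exact hy a.2

end Cfsg.Agent.Lib.Helper4
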