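import Mathlib
import Cfsg.Prelude.Def_Local
import Cfsg.Agent.Lib.Lead.Cores
import Cfsg.Agent.Lib.Helper76.PSolvable

/-!
# A normal subgroup `A` with `O_{p'}(G) ≤ A`, `A / O_{p'}(G)` an abelian `p`-group, `Z(P) ≤ A`
(for `p`-solvable `G`), used to bound heights.
-/

set_option autoImplicit false

namespace Cfsg.Agent.Lib.Helper4

open Cfsg Cfsg.Agent.Lib

theorem exists_abelian_layer {G : Type*} [Group G] [Finite G] (p : ℕ) [Fact p.Prime]
    (hsol : IsPSolvable p G) :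
    ∃ A : Subgroup G, A.Normal ∧ pPrimeCore p G ≤ A ∧
      (∀ a ∈ A, ∀ b ∈ A, a * b * a⁻¹ * b⁻¹ ∈ pPrimeCore p G) ∧
      (∃ k : ℕ, Nat.card A = Nat.card (pPrimeCore p G) * p ^ k) ∧
      ∀ P : Sylow p G, ∀ z ∈ (P : Subgroup G), (∀ y ∈ (P : Subgroup G), z * y = y * z) → z ∈ A := by
  have hsol' : IsPSolvable p (G ⧸ pPrimeCore p G) := Helper76.isPSolvable_quotient _ hsol
  have hcore : pPrimeCore p (G ⧸ pPrimeCore p G) = ⊥ := Lead.pPrimeCore_quotient_pPrimeCore p G
  have hC := Helper76.centralizer_pCore_le hsol' hcore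
  have hZn : (Subgroup.centralizer (pCore p (G ⧸ pPrimeCore p G) : Set (G ⧸ pPrimeCore p G))).Normal :=
    inferInstance
  refine ⟨(Subgroup.centralizer (pCore p (G ⧸ pPrimeCore p G) : Set (G ⧸ pPrimeCore p G))).comap
    (QuotientGroup.mk' (pPrimeCore p G)), inferInstance, ?_, ?_, ?_, ?_⟩
  · intro x hx
    rw [Subgroup.mem_comap]
    have : QuotientGroup.mk' (pPrimeCore p G) x = 1 := by
      rw [QuotientGroup.mk'_apply, QuotientGroup.eq_one_iff]; exact hx
    rw [this]; exact Subgroup.one_mem _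
  · intro a ha b hb
    rw [Subgroup.mem_comap] at ha hb
    have h1 := (Subgroup.mem_centralizer_iff.1 ha) _ (hC hb)
    rw [← QuotientGroup.eq_one_iff]
    have h2 : ((a * b * a⁻¹ * b⁻¹ : G) : G ⧸ pPrimeCore p G)
        = QuotientGroup.mk' _ a * QuotientGroup.mk' _ b * (QuotientGroup.mk' _ a)⁻¹
          * (QuotientGroup.mk' _ b)⁻¹ := rfl
    rw [h2, ← h1]
    group
  · have hp : IsPGroup p (Subgroup.centralizer
        (pCore p (G ⧸ pPrimeCore p G) : Set (G ⧸ pPrimeCore p G))) :=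
      (Lead.pCore_isPGroup p _).to_le hC
    obtain ⟨k, hk⟩ := hp.exists_card_eq
    exact ⟨k, by rw [Lead.card_comap_mk', hk]⟩
  · intro P z hz hzc
    rw [Subgroup.mem_comap, Subgroup.mem_centralizer_iff]
    intro r hr
    have hsurj : Function.Surjective (QuotientGroup.mk' (pPrimeCore p G)) :=
      QuotientGroup.mk'_surjective _
    have h1 : pCore p (G ⧸ pPrimeCore p G) ≤ (P.mapSurjective hsurj : Subgroup _) :=
      Lead.pCore_le_sylow _
    obtain ⟨y, hy, rfl⟩ := h1 hr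
    rw [← map_mul, ← map_mul, hzc y hy]

end Cfsg.Agent.Lib.Helper4
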