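import Mathlib
import Cfsg.Agent.Lib.Helper4.PSolvHeightA
import Cfsg.Agent.Lib.Helper80.AbelianQuot
import Cfsg.Agent.Lib.Helper80.CoreDvd
import Cfsg.Agent.Lib.Helper15.CoprimeCount
import Cfsg.Agent.Lib.Helper15.Relative
import Cfsg.Agent.Lib.Helper16.PPrimeBlock
import Cfsg.Agent.S0887

/-!
# `p`-part of the degree of a character over an invariant character of `O_{p'}(G)`
-/

set_option autoImplicit false

namespace Cfsg.Agent.Lib.Helper4

open Cfsg Cfsg.Agent.Lib

/-- characters over an invariant character of a normal Hall subgroup with abelian quotient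
have the same degree -/
theorem degree_eq_of_coprime_abelian {X : Type*} [Group X] [Fintype X] (N : Subgroup X)
    [hN : N.Normal] [Fintype N] (hcop : (Nat.card N).Coprime N.index) (hab : commutator X ≤ N)
    {ϑ : N → ℂ} (hϑ : IsIrrCharacter N ϑ)
    (hinv : ∀ (g : X) (n : N), ϑ ⟨g * n * g⁻¹, hN.conj_mem (n : X) n.2 g⟩ = ϑ n)
    {η : X → ℂ} (hη : IsIrrCharacter X η) (h : classInner (fun n : N => η n) ϑ ≠ 0) :
    η 1 = ϑ 1 := by
  obtain ⟨χ, hχ, hres⟩ := Helper15.exists_extension_of_coprime N hcop hϑ hinv
  have h1 : (fun n : N => χ n) = ϑ := funext hres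
  have := Helper80.char_one_eq_of_restrict_inner_ne_zero N hab ⟨η, hη⟩ ⟨χ, hχ⟩ (by
    show classInner (fun n : N => η n) (fun n : N => χ n) ≠ 0
    rw [h1]; exact h)
  have h2 : η 1 = χ 1 := this
  rw [h2]
  exact hres 1

theorem val_degree_le_of_invariant {G : Type*} [Group G] [Fintype G] (p : ℕ) [Fact p.Prime]
    (hsol : IsPSolvable p G) [Fintype (pPrimeCore p G)] (θ : IrrCharacter (pPrimeCore p G))
    (hinv : ∀ (g : G) (n : pPrimeCore p G),
      (θ : pPrimeCore p G → ℂ) ⟨g * n * g⁻¹, (inferInstance : (pPrimeCore p G).Normal).conj_mem n n.2 g⟩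
        = (θ : pPrimeCore p G → ℂ) n)
    (χ : IrrCharacter G)
    (hχ : classInner (fun n : pPrimeCore p G => (χ : G → ℂ) n) (θ : pPrimeCore p G → ℂ) ≠ 0)
    (P : Sylow p G) :
    (charDegree (χ : G → ℂ)).factorization p
      ≤ ((Subgroup.center (P : Subgroup G)).index).factorization p := by
  classical
  have hp : p.Prime := Fact.out
  obtain ⟨A, hAn, hNA, hcomm, ⟨k, hk⟩, hZ⟩ := exists_abelian_layer p hsol
  have := hAn
  have : Fintype A := Fintype.ofFinite _
  have : Fintype ((pPrimeCore p G).subgroupOf A) := Fintype.ofFinite _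
  obtain ⟨η, hη1, hη2⟩ := Helper16.exists_intermediate hNA χ θ hχ
  have hNcop : (Nat.card (pPrimeCore p G)).Coprime p := Lead.card_pPrimeCore_coprime p
  -- degree of η
  have hcard' : Nat.card ((pPrimeCore p G).subgroupOf A) = Nat.card (pPrimeCore p G) :=
    Helper15.card_subgroupOf_of_le hNA
  have hidx : ((pPrimeCore p G).subgroupOf A).index = p ^ k := by
    have h1 := ((pPrimeCore p G).subgroupOf A).index_mul_card
    rw [hcard', hk, mul_comm] at h1
    exact Nat.eq_of_mul_eq_mul_left Nat.card_pos h1
  have hdeg : (η : A → ℂ) 1 = (θ : pPrimeCore p G → ℂ) 1 := by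
    have := degree_eq_of_coprime_abelian ((pPrimeCore p G).subgroupOf A)
      (by rw [hcard', hidx]; exact Nat.Coprime.pow_right k hNcop)
      (by
        rw [commutator_def, Subgroup.commutator_le]
        intro a _ b _
        rw [Subgroup.mem_subgroupOf]
        exact hcomm a a.2 b b.2)
      (Helper15.irr_downFun hNA θ.2)
      (by
        intro g n
        exact hinv (g : G) ⟨((n : A) : G), Subgroup.mem_subgroupOf.1 n.2⟩)
      η.2
      (by
        rw [← Helper15.downFun_resFun hNA (η : A → ℂ), Helper15.classInner_downFun hNA]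
        exact hη2)
    rw [this]
    rfl
  have hθd : (θ : pPrimeCore p G → ℂ) 1 = (charDegree (θ : pPrimeCore p G → ℂ) : ℂ) :=
    Helper80.char_one_eq_charDegree (Helper15.irr_char θ.2)
  have hχd : (χ : G → ℂ) 1 = (charDegree (χ : G → ℂ) : ℂ) :=
    Helper80.char_one_eq_charDegree (Helper15.irr_char χ.2)
  obtain ⟨hd1, hd2⟩ := Cfsg.Agent.S0887.result A (χ : G → ℂ) χ.2 (η : A → ℂ) η.2 hη1
    (charDegree (χ : G → ℂ)) (charDegree (θ : pPrimeCore p G → ℂ)) hχd (by rw [hdeg, hθd])
  have hθp : ¬ p ∣ charDegree (θ : pPrimeCore p G → ℂ) := by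
    intro h
    have h1 := h.trans (Helper80.charDegree_dvd_card θ)
    exact (Nat.Prime.coprime_iff_not_dvd hp).1 hNcop.symm h1
  obtain ⟨c, hc⟩ := hd1
  have hθ0 : 0 < charDegree (θ : pPrimeCore p G → ℂ) := by
    rcases Nat.eq_zero_or_pos (charDegree (θ : pPrimeCore p G → ℂ)) with h | h
    · exact absurd (by rw [h]; exact dvd_zero p) hθp
    · exact h
  rw [hc, Nat.mul_div_cancel_left _ hθ0] at hd2
  have hA0 : A.index ≠ 0 := Subgroup.index_ne_zero_of_finite
  have hc0 : c ≠ 0 := by
    rintro rfl
    exact hA0 (Nat.eq_zero_of_zero_dvd hd2)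
  have h1 : (charDegree (χ : G → ℂ)).factorization p = c.factorization p := by
    rw [hc, Nat.factorization_mul hθ0.ne' hc0, Finsupp.add_apply,
      Nat.factorization_eq_zero_of_not_dvd hθp, zero_add]
  have h2 : c.factorization p ≤ A.index.factorization p :=
    (Nat.factorization_le_iff_dvd hc0 hA0).2 hd2 p
  rw [h1]
  refine h2.trans ?_
  -- compare `|G : A|_p` and `|P : Z(P)|`
  have hZA : (Subgroup.center (P : Subgroup G)).map (P : Subgroup G).subtype ≤ A := by
    rintro _ ⟨z, hz, rfl⟩
    refine hZ P z z.2 ?_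
    intro y hy
    have := (Subgroup.mem_center_iff.1 hz) ⟨y, hy⟩
    exact (congrArg Subtype.val this).symm
  have hZcard : Nat.card (Subgroup.center (P : Subgroup G)) ∣ Nat.card A := by
    rw [← Subgroup.card_map_of_injective (P : Subgroup G).subtype_injective]
    exact Subgroup.card_dvd_of_le hZA
  have e1 := A.index_mul_card
  have e2 := (Subgroup.center (P : Subgroup G)).index_mul_card
  have e3 : Nat.card (P : Subgroup G) = p ^ (Nat.card G).factorization p := P.card_eq_multiplicity
  have f1 : A.index.factorization p + (Nat.card A).factorization p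
      = (Nat.card G).factorization p := by
    rw [← e1, Nat.factorization_mul hA0 Nat.card_pos.ne', Finsupp.add_apply]
  have f2 : (Subgroup.center (P : Subgroup G)).index.factorization p
      + (Nat.card (Subgroup.center (P : Subgroup G))).factorization p
      = (Nat.card G).factorization p := by
    have : (Nat.card (P : Subgroup G)).factorization p = (Nat.card G).factorization p := by
      rw [e3, hp.factorization_pow]; simp
    rw [← this, ← e2, Nat.factorization_mul Subgroup.index_ne_zero_of_finite Nat.card_pos.ne',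
      Finsupp.add_apply]
  have f3 : (Nat.card (Subgroup.center (P : Subgroup G))).factorization p
      ≤ (Nat.card A).factorization p :=
    (Nat.factorization_le_iff_dvd Nat.card_pos.ne' Nat.card_pos.ne').2 hZcard p
  omega

end Cfsg.Agent.Lib.Helper4
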